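import Cfsg.Agent.Lib.Helper94.SpRow.Defs4
import Cfsg.Agent.Lib.Helper9.Inv.KSTR

set_option autoImplicit false
set_option linter.unusedSectionVars false

namespace Cfsg.Agent.Lib.Helper64.SpRow

open Cfsg Cfsg.Geo Matrix Cfsg.Agent.Lib.Helper94.SpRow
open scoped MatrixGroups

variable {F : Type*} [Field F]

/-- K1 -/
theorem exists_KD (h2 : (2 : F) = 0) (K : Subalgebra F (Matrix (Fin 2 ⊕ Fin 2) (Fin 2 ⊕ Fin 2) F))
    (hK : IsFieldSubalgebra 2 K) (hsa : IsSelfAdjointFor (sympForm 2 F) K)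
    (halt : ∀ k ∈ K, ∀ v : Fin 2 ⊕ Fin 2 → F, sympForm 2 F (k *ᵥ v) v = 0) : Nonempty (KD K) := by
  obtain ⟨ω, t, d, hω, hsq, hirr, hmem⟩ := Cfsg.Agent.Lib.Helper9.Inv.exists_generator K hK
  refine ⟨{ θ := ω, a := t, b := -d, mem := hω, span := fun k hk => (hmem k).mp hk, sq := ?_, aniso := ?_,
            adj := hsa ω hω, alt := halt ω hω }⟩
  · rw [hsq]; module
  · intro y z h
    have hz : z = 0 := by
      by_contra hz
      apply hirr (y / z)
      have h3 : (y / z) * (y / z) - t * (y / z) + d =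
          (y ^ 2 + t * y * z + (-d) * z ^ 2) / z ^ 2 - 2 * (t * (y / z)) + 2 * d := by
        field_simp
        ring
      rw [h3, h, h2]
      simp
    subst hz
    refine ⟨?_, rfl⟩
    simpa using h

end Cfsg.Agent.Lib.Helper64.SpRow
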