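import Cfsg.Agent.Lib.Helper94.SpRow.Defs4

set_option autoImplicit false
set_option linter.unusedSectionVars false

namespace Cfsg.Agent.Lib.Helper64.SpRow

open Cfsg Cfsg.Geo Matrix Cfsg.Agent.Lib.Helper94.SpRow
open scoped MatrixGroups

variable {F : Type*} [Field F]

/-- `θ (θ v) = a θ v + b v` -/
lemma KD_sq_mulVec {K : Subalgebra F (Matrix (Fin 2 ⊕ Fin 2) (Fin 2 ⊕ Fin 2) F)} (D : KD K)
    (v : Fin 2 ⊕ Fin 2 → F) : D.θ *ᵥ (D.θ *ᵥ v) = D.a • (D.θ *ᵥ v) + D.b • v := by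
  rw [Matrix.mulVec_mulVec, D.sq, Matrix.add_mulVec, Matrix.smul_mulVec, Matrix.smul_mulVec,
    Matrix.one_mulVec]

/-- an invertible matrix commuting with `θ` normalises `K` -/
lemma mem_normalizer_of_comm {K : Subalgebra F (Matrix (Fin 2 ⊕ Fin 2) (Fin 2 ⊕ Fin 2) F)} (D : KD K)
    (g : GL (Fin 2 ⊕ Fin 2) F)
    (hθ : (g : Matrix (Fin 2 ⊕ Fin 2) (Fin 2 ⊕ Fin 2) F) * D.θ = D.θ * (g : Matrix (Fin 2 ⊕ Fin 2) (Fin 2 ⊕ Fin 2) F)) :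
    g ∈ subalgebraNormalizer K := by
  have hcomm : ∀ k ∈ K, (g : Matrix (Fin 2 ⊕ Fin 2) (Fin 2 ⊕ Fin 2) F) * k =
      k * (g : Matrix (Fin 2 ⊕ Fin 2) (Fin 2 ⊕ Fin 2) F) := by
    intro k hk
    obtain ⟨x, y, rfl⟩ := D.span k hk
    rw [mul_add, add_mul, mul_smul_comm, smul_mul_assoc, mul_one, one_mul, mul_smul_comm,
      smul_mul_assoc, hθ]
  have hgi : (g : Matrix (Fin 2 ⊕ Fin 2) (Fin 2 ⊕ Fin 2) F) *
      ((g⁻¹ : GL (Fin 2 ⊕ Fin 2) F) : Matrix (Fin 2 ⊕ Fin 2) (Fin 2 ⊕ Fin 2) F) = 1 := by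
    rw [← Units.val_mul, mul_inv_cancel, Units.val_one]
  have hig : ((g⁻¹ : GL (Fin 2 ⊕ Fin 2) F) : Matrix (Fin 2 ⊕ Fin 2) (Fin 2 ⊕ Fin 2) F) *
      (g : Matrix (Fin 2 ⊕ Fin 2) (Fin 2 ⊕ Fin 2) F) = 1 := by
    rw [← Units.val_mul, inv_mul_cancel, Units.val_one]
  show ∀ k : Matrix (Fin 2 ⊕ Fin 2) (Fin 2 ⊕ Fin 2) F, k ∈ K ↔
    (g : Matrix (Fin 2 ⊕ Fin 2) (Fin 2 ⊕ Fin 2) F) * k *
      ((g⁻¹ : GL (Fin 2 ⊕ Fin 2) F) : Matrix (Fin 2 ⊕ Fin 2) (Fin 2 ⊕ Fin 2) F) ∈ K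
  intro k
  constructor
  · intro hk
    rw [hcomm k hk, mul_assoc, hgi, mul_one]
    exact hk
  · intro hk
    have h1 := hcomm _ hk
    have h3 : (g : Matrix (Fin 2 ⊕ Fin 2) (Fin 2 ⊕ Fin 2) F) * k *
        ((g⁻¹ : GL (Fin 2 ⊕ Fin 2) F) : Matrix (Fin 2 ⊕ Fin 2) (Fin 2 ⊕ Fin 2) F) *
        (g : Matrix (Fin 2 ⊕ Fin 2) (Fin 2 ⊕ Fin 2) F) = (g : Matrix (Fin 2 ⊕ Fin 2) (Fin 2 ⊕ Fin 2) F) * k := by
      rw [mul_assoc, hig, mul_one]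
    rw [h3] at h1
    have h4 : (g : Matrix (Fin 2 ⊕ Fin 2) (Fin 2 ⊕ Fin 2) F) * k *
        ((g⁻¹ : GL (Fin 2 ⊕ Fin 2) F) : Matrix (Fin 2 ⊕ Fin 2) (Fin 2 ⊕ Fin 2) F) = k := by
      have h5 := congrArg (fun M => ((g⁻¹ : GL (Fin 2 ⊕ Fin 2) F) : Matrix (Fin 2 ⊕ Fin 2) (Fin 2 ⊕ Fin 2) F) * M) h1
      simp only [← mul_assoc, hig, one_mul] at h5
      exact h5
    rw [h4] at hk
    exact hk

/-- K2 -/
theorem ktv_mem (h2 : (2 : F) = 0) {K : Subalgebra F (Matrix (Fin 2 ⊕ Fin 2) (Fin 2 ⊕ Fin 2) F)}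
    (D : KD K) (v : Fin 2 ⊕ Fin 2 → F) (y z : F) :
    U3 v (D.θ *ᵥ v) (D.a * y + D.b * z) y z ∈ subalgebraNormalizer K := by
  apply mem_normalizer_of_comm D
  have hf : sympForm 2 F v (D.θ *ᵥ v) = 0 := by rw [sf_swap, D.alt, neg_zero]
  apply Matrix.mulVec_injective
  funext w
  rw [← Matrix.mulVec_mulVec, ← Matrix.mulVec_mulVec, U3_mulVec hf, U3_mulVec hf]
  rw [D.adj w v, D.adj w (D.θ *ᵥ v), KD_sq_mulVec, sf_add_right, sf_smul_right, sf_smul_right]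
  rw [Matrix.mulVec_add, Matrix.mulVec_add, Matrix.mulVec_smul, Matrix.mulVec_smul, KD_sq_mulVec]
  generalize sympForm 2 F w v = α
  generalize sympForm 2 F w (D.θ *ᵥ v) = β
  generalize D.θ *ᵥ v = p
  generalize D.θ *ᵥ w = r
  have key : r + ((D.a * y + D.b * z) * β + y * (D.a * β + D.b * α)) • v +
      (y * β + z * (D.a * β + D.b * α)) • p =
      r + ((D.a * y + D.b * z) * α + y * β) • p + (y * α + z * β) • (D.a • p + D.b • v) +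
        (2 * (D.a * y * β)) • v - (2 * (D.a * y * α)) • p := by
    module
  rw [key, h2]
  simp

end Cfsg.Agent.Lib.Helper64.SpRow
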