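import Cfsg.Agent.Lib.Helper64.SpRow.QK3Aux
import Cfsg.Agent.Lib.Helper97.SpRow.QK0
import Cfsg.Agent.Lib.Helper96.SpRow.QK8

set_option autoImplicit false
set_option linter.unusedSectionVars false

namespace Cfsg.Agent.Lib.Helper64.SpRow

open Cfsg Cfsg.Geo Matrix Cfsg.Agent.Lib.Helper94.SpRow
open scoped MatrixGroups

variable {F : Type*} [Field F]

/-- K3 -/
theorem exists_moved (h2 : (2 : F) = 0)
    {K : Subalgebra F (Matrix (Fin 2 ⊕ Fin 2) (Fin 2 ⊕ Fin 2) F)} (D : KD K)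
    (g : GL (Fin 2 ⊕ Fin 2) F) (hg : g ∉ subalgebraNormalizer K) :
    ∃ v : Fin 2 ⊕ Fin 2 → F, v ≠ 0 ∧ ¬ ∃ x y : F, D.θ *ᵥ ((g : Matrix _ _ F) *ᵥ v) =
      x • ((g : Matrix _ _ F) *ᵥ v) + y • ((g : Matrix _ _ F) *ᵥ (D.θ *ᵥ v)) :=
  exists_moved_of h2 D (fun _ hv x y h => Cfsg.Agent.Lib.Helper97.SpRow.KD_ind h2 D hv x y h)
    (fun u w hu hw => Cfsg.Agent.Lib.Helper96.SpRow.exists_outside h2 D u w hu hw) g hg

end Cfsg.Agent.Lib.Helper64.SpRow
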