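import Cfsg.Agent.Lib.Helper94.SpRow.Defs4
import Cfsg.Agent.Lib.Helper64.SpRow.QK2
import Cfsg.Agent.Lib.Helper9.Inv.NORM

set_option autoImplicit false
set_option linter.unusedSectionVars false

namespace Cfsg.Agent.Lib.Helper64.SpRow

open Cfsg Cfsg.Geo Matrix Cfsg.Agent.Lib.Helper94.SpRow
open scoped MatrixGroups

variable {F : Type*} [Field F] {K : Subalgebra F (Matrix (Fin 2 ⊕ Fin 2) (Fin 2 ⊕ Fin 2) F)}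

lemma QK3_four (h2 : (2 : F) = 0) (D : KD K)
    (hind : ∀ v : Fin 2 ⊕ Fin 2 → F, v ≠ 0 → ∀ x y : F, x • v + y • (D.θ *ᵥ v) = 0 → x = 0 ∧ y = 0)
    {v w : Fin 2 ⊕ Fin 2 → F} (hv : v ≠ 0) (hw : ¬ ∃ x y : F, w = x • v + y • (D.θ *ᵥ v))
    (x y x' y' : F) (h : x • v + y • (D.θ *ᵥ v) + x' • w + y' • (D.θ *ᵥ w) = 0) :
    x = 0 ∧ y = 0 ∧ x' = 0 ∧ y' = 0 := by
  have h' : x • (D.θ *ᵥ v) + y • (D.a • (D.θ *ᵥ v) + D.b • v) + x' • (D.θ *ᵥ w) +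
      y' • (D.a • (D.θ *ᵥ w) + D.b • w) = 0 := by
    have := congrArg (fun u => D.θ *ᵥ u) h
    simp only [Matrix.mulVec_add, Matrix.mulVec_smul, KD_sq_mulVec, Matrix.mulVec_zero] at this
    exact this
  have hN : x' ^ 2 + D.a * x' * y' + D.b * y' ^ 2 = 0 := by
    by_contra hN
    apply hw
    have h3 : ((x' + D.a * y') * x + y' * y * D.b) • v +
        ((x' + D.a * y') * y + y' * x + y' * y * D.a) • (D.θ *ᵥ v) +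
        (x' ^ 2 + D.a * x' * y' + D.b * y' ^ 2) • w = 0 := by
      have h4 : ((x' + D.a * y') * x + y' * y * D.b) • v +
          ((x' + D.a * y') * y + y' * x + y' * y * D.a) • (D.θ *ᵥ v) +
          (x' ^ 2 + D.a * x' * y' + D.b * y' ^ 2) • w
          = (x' + D.a * y') • (x • v + y • (D.θ *ᵥ v) + x' • w + y' • (D.θ *ᵥ w)) +
            y' • (x • (D.θ *ᵥ v) + y • (D.a • (D.θ *ᵥ v) + D.b • v) + x' • (D.θ *ᵥ w) +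
              y' • (D.a • (D.θ *ᵥ w) + D.b • w)) - (2 * (x' * y' + D.a * y' ^ 2)) • (D.θ *ᵥ w) := by
        module
      rw [h4, h, h', h2]
      simp
    generalize x' ^ 2 + D.a * x' * y' + D.b * y' ^ 2 = N at hN h3
    generalize (x' + D.a * y') * x + y' * y * D.b = P at h3
    generalize (x' + D.a * y') * y + y' * x + y' * y * D.a = Q at h3
    refine ⟨-(N⁻¹ * P), -(N⁻¹ * Q), ?_⟩
    have h5 : N • w = -(P • v + Q • (D.θ *ᵥ v)) := eq_neg_of_add_eq_zero_right h3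
    calc w = N⁻¹ • (N • w) := by rw [smul_smul, inv_mul_cancel₀ hN, one_smul]
      _ = -(N⁻¹ * P) • v + -(N⁻¹ * Q) • (D.θ *ᵥ v) := by rw [h5]; module
  obtain ⟨hx', hy'⟩ := D.aniso x' y' hN
  subst hx' hy'
  simp only [zero_smul, add_zero] at h
  obtain ⟨hx, hy⟩ := hind v hv x y h
  exact ⟨hx, hy, rfl, rfl⟩

lemma QK3_pair (h2 : (2 : F) = 0) (D : KD K)
    (hind : ∀ v : Fin 2 ⊕ Fin 2 → F, v ≠ 0 → ∀ x y : F, x • v + y • (D.θ *ᵥ v) = 0 → x = 0 ∧ y = 0)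
    (T : (Fin 2 ⊕ Fin 2 → F) → (Fin 2 ⊕ Fin 2 → F)) (hT : ∀ u w, T (u + w) = T u + T w)
    (hTx : ∀ v, v ≠ 0 → ∃ x y : F, T v = x • v + y • (D.θ *ᵥ v))
    {v w : Fin 2 ⊕ Fin 2 → F} (hv : v ≠ 0) (hw : ¬ ∃ x y : F, w = x • v + y • (D.θ *ᵥ v))
    {xv yv xw yw : F} (h1 : T v = xv • v + yv • (D.θ *ᵥ v)) (h1' : T w = xw • w + yw • (D.θ *ᵥ w)) :
    xv = xw ∧ yv = yw := by
  have hs : v + w ≠ 0 := by
    intro h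
    apply hw
    exact ⟨-1, 0, by rw [zero_smul, add_zero, neg_one_smul]; exact eq_neg_of_add_eq_zero_right h⟩
  obtain ⟨xs, ys, h3⟩ := hTx _ hs
  rw [hT, h1, h1', Matrix.mulVec_add] at h3
  have h4 : (xs - xv) • v + (ys - yv) • (D.θ *ᵥ v) + (xs - xw) • w + (ys - yw) • (D.θ *ᵥ w) = 0 := by
    have h5 : (xs - xv) • v + (ys - yv) • (D.θ *ᵥ v) + (xs - xw) • w + (ys - yw) • (D.θ *ᵥ w) =
        (xs • (v + w) + ys • (D.θ *ᵥ v + D.θ *ᵥ w)) -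
          (xv • v + yv • (D.θ *ᵥ v) + (xw • w + yw • (D.θ *ᵥ w))) := by module
    rw [h5, ← h3, sub_self]
  obtain ⟨a1, a2, a3, a4⟩ := QK3_four h2 D hind hv hw _ _ _ _ h4
  constructor
  · linear_combination a3 - a1
  · linear_combination a4 - a2

theorem exists_moved_of (h2 : (2 : F) = 0) (D : KD K)
    (hind : ∀ v : Fin 2 ⊕ Fin 2 → F, v ≠ 0 → ∀ x y : F, x • v + y • (D.θ *ᵥ v) = 0 → x = 0 ∧ y = 0)
    (hout : ∀ u w : Fin 2 ⊕ Fin 2 → F, u ≠ 0 → w ≠ 0 →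
      ∃ w' : Fin 2 ⊕ Fin 2 → F, w' ≠ 0 ∧ (¬ ∃ x y : F, w' = x • u + y • (D.θ *ᵥ u)) ∧
        (¬ ∃ x y : F, w = x • w' + y • (D.θ *ᵥ w')))
    (g : GL (Fin 2 ⊕ Fin 2) F) (hg : g ∉ subalgebraNormalizer K) :
    ∃ v : Fin 2 ⊕ Fin 2 → F, v ≠ 0 ∧ ¬ ∃ x y : F, D.θ *ᵥ ((g : Matrix _ _ F) *ᵥ v) =
      x • ((g : Matrix _ _ F) *ᵥ v) + y • ((g : Matrix _ _ F) *ᵥ (D.θ *ᵥ v)) := by
  by_contra hcon
  push Not at hcon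
  apply hg
  have hgi : (g : Matrix (Fin 2 ⊕ Fin 2) (Fin 2 ⊕ Fin 2) F) *
      ((g⁻¹ : GL (Fin 2 ⊕ Fin 2) F) : Matrix (Fin 2 ⊕ Fin 2) (Fin 2 ⊕ Fin 2) F) = 1 := by
    rw [← Units.val_mul, mul_inv_cancel, Units.val_one]
  have hig : ((g⁻¹ : GL (Fin 2 ⊕ Fin 2) F) : Matrix (Fin 2 ⊕ Fin 2) (Fin 2 ⊕ Fin 2) F) *
      (g : Matrix (Fin 2 ⊕ Fin 2) (Fin 2 ⊕ Fin 2) F) = 1 := by
    rw [← Units.val_mul, inv_mul_cancel, Units.val_one]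
  let T : (Fin 2 ⊕ Fin 2 → F) → (Fin 2 ⊕ Fin 2 → F) := fun v =>
    ((g⁻¹ : GL (Fin 2 ⊕ Fin 2) F) : Matrix (Fin 2 ⊕ Fin 2) (Fin 2 ⊕ Fin 2) F) *ᵥ
      (D.θ *ᵥ ((g : Matrix (Fin 2 ⊕ Fin 2) (Fin 2 ⊕ Fin 2) F) *ᵥ v))
  have hT : ∀ u w, T (u + w) = T u + T w := by
    intro u w
    simp only [T, Matrix.mulVec_add]
  have hTx : ∀ v, v ≠ 0 → ∃ x y : F, T v = x • v + y • (D.θ *ᵥ v) := by
    intro v hv
    obtain ⟨x, y, h⟩ := hcon v hv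
    refine ⟨x, y, ?_⟩
    show ((g⁻¹ : GL (Fin 2 ⊕ Fin 2) F) : Matrix (Fin 2 ⊕ Fin 2) (Fin 2 ⊕ Fin 2) F) *ᵥ
      (D.θ *ᵥ ((g : Matrix (Fin 2 ⊕ Fin 2) (Fin 2 ⊕ Fin 2) F) *ᵥ v)) = _
    rw [h, Matrix.mulVec_add, Matrix.mulVec_smul, Matrix.mulVec_smul, Matrix.mulVec_mulVec,
      Matrix.mulVec_mulVec, hig, Matrix.one_mulVec, Matrix.one_mulVec]
  have hv0 : e1 F ≠ 0 := by
    intro h
    have := congrFun h (Sum.inl 0)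
    simp [e1] at this
  obtain ⟨x0, y0, h0⟩ := hTx (e1 F) hv0
  have hall : ∀ v, T v = x0 • v + y0 • (D.θ *ᵥ v) := by
    intro v
    by_cases hv : v = 0
    · subst hv; simp [T]
    · obtain ⟨x, y, hxy⟩ := hTx v hv
      obtain ⟨w', hw', ho1, ho2⟩ := hout (e1 F) v hv0 hv
      obtain ⟨x', y', hxy'⟩ := hTx w' hw'
      obtain ⟨p1, p2⟩ := QK3_pair h2 D hind T hT hTx hv0 ho1 h0 hxy'
      obtain ⟨q1, q2⟩ := QK3_pair h2 D hind T hT hTx hw' ho2 hxy' hxy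
      rw [hxy, p1, p2, q1, q2]
  have hvec : ∀ v, D.θ *ᵥ ((g : Matrix (Fin 2 ⊕ Fin 2) (Fin 2 ⊕ Fin 2) F) *ᵥ v) =
      (g : Matrix (Fin 2 ⊕ Fin 2) (Fin 2 ⊕ Fin 2) F) *ᵥ (x0 • v + y0 • (D.θ *ᵥ v)) := by
    intro v
    rw [← hall v]
    show _ = (g : Matrix (Fin 2 ⊕ Fin 2) (Fin 2 ⊕ Fin 2) F) *ᵥ
      (((g⁻¹ : GL (Fin 2 ⊕ Fin 2) F) : Matrix (Fin 2 ⊕ Fin 2) (Fin 2 ⊕ Fin 2) F) *ᵥ
      (D.θ *ᵥ ((g : Matrix (Fin 2 ⊕ Fin 2) (Fin 2 ⊕ Fin 2) F) *ᵥ v)))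
    rw [Matrix.mulVec_mulVec _ (g : Matrix (Fin 2 ⊕ Fin 2) (Fin 2 ⊕ Fin 2) F), hgi, Matrix.one_mulVec]
  have hmat : D.θ * (g : Matrix (Fin 2 ⊕ Fin 2) (Fin 2 ⊕ Fin 2) F) =
      x0 • (g : Matrix (Fin 2 ⊕ Fin 2) (Fin 2 ⊕ Fin 2) F) +
        y0 • ((g : Matrix (Fin 2 ⊕ Fin 2) (Fin 2 ⊕ Fin 2) F) * D.θ) := by
    apply Matrix.mulVec_injective
    funext v
    rw [← Matrix.mulVec_mulVec, hvec, Matrix.add_mulVec, Matrix.smul_mulVec, Matrix.smul_mulVec,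
      ← Matrix.mulVec_mulVec, Matrix.mulVec_add, Matrix.mulVec_smul, Matrix.mulVec_smul]
  have hy0 : y0 ≠ 0 := by
    intro hy0
    have h6 := hvec (e1 F)
    rw [hy0, zero_smul, add_zero, Matrix.mulVec_smul] at h6
    have hu : (g : Matrix (Fin 2 ⊕ Fin 2) (Fin 2 ⊕ Fin 2) F) *ᵥ e1 F ≠ 0 := by
      intro hu
      apply hv0
      have := congrArg (fun u => ((g⁻¹ : GL (Fin 2 ⊕ Fin 2) F) : Matrix (Fin 2 ⊕ Fin 2) (Fin 2 ⊕ Fin 2) F) *ᵥ u) hu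
      simpa [Matrix.mulVec_mulVec, hig] using this
    have h7 : x0 • ((g : Matrix (Fin 2 ⊕ Fin 2) (Fin 2 ⊕ Fin 2) F) *ᵥ e1 F) +
        (1 : F) • (D.θ *ᵥ ((g : Matrix (Fin 2 ⊕ Fin 2) (Fin 2 ⊕ Fin 2) F) *ᵥ e1 F)) = 0 := by
      rw [h6, one_smul, ← add_smul, ← two_mul, h2, zero_mul, zero_smul]
    exact one_ne_zero (hind _ hu x0 1 h7).2
  have hKθ : ∀ k : Matrix (Fin 2 ⊕ Fin 2) (Fin 2 ⊕ Fin 2) F, k ∈ K ↔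
      ∃ a b : F, k = a • (1 : Matrix (Fin 2 ⊕ Fin 2) (Fin 2 ⊕ Fin 2) F) + b • D.θ := by
    intro k
    constructor
    · exact D.span k
    · rintro ⟨a, b, rfl⟩
      exact K.add_mem (K.smul_mem K.one_mem a) (K.smul_mem D.mem b)
  refine Cfsg.Agent.Lib.Helper9.Inv.mem_normalizer_of_conj K D.θ hKθ g (-(y0⁻¹ * x0)) y0⁻¹
    (inv_ne_zero hy0) ?_
  calc (g : Matrix (Fin 2 ⊕ Fin 2) (Fin 2 ⊕ Fin 2) F) * D.θ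
      = y0⁻¹ • (y0 • ((g : Matrix (Fin 2 ⊕ Fin 2) (Fin 2 ⊕ Fin 2) F) * D.θ)) := by
        rw [smul_smul, inv_mul_cancel₀ hy0, one_smul]
    _ = y0⁻¹ • (D.θ * (g : Matrix (Fin 2 ⊕ Fin 2) (Fin 2 ⊕ Fin 2) F) -
          x0 • (g : Matrix (Fin 2 ⊕ Fin 2) (Fin 2 ⊕ Fin 2) F)) := by
        rw [hmat, add_sub_cancel_left]
    _ = (-(y0⁻¹ * x0) • (1 : Matrix (Fin 2 ⊕ Fin 2) (Fin 2 ⊕ Fin 2) F) + y0⁻¹ • D.θ) *
          (g : Matrix (Fin 2 ⊕ Fin 2) (Fin 2 ⊕ Fin 2) F) := by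
        rw [add_mul, smul_mul_assoc, smul_mul_assoc, one_mul]
        module

end Cfsg.Agent.Lib.Helper64.SpRow
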