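import Cfsg.Agent.Lib.Helper8.SpRow.S0
import Cfsg.Agent.Lib.Helper8.SpRow.S2
import Cfsg.Agent.Lib.Helper94.TensF3

set_option autoImplicit false
set_option linter.unusedSimpArgs false
set_option linter.unusedSectionVars false

namespace Cfsg.Agent.Lib.Helper64.SpRow

open Cfsg Cfsg.Geo Matrix Cfsg.Agent.Lib.Helper13.Asch Cfsg.Agent.Lib.Helper94.SpRow
open Cfsg.Agent.Lib.Helper8.SpRow (std_relations std_commutant)
open scoped MatrixGroups

variable {F : Type*} [Field F]

section general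

variable {ι : Type} [Fintype ι] [DecidableEq ι]

lemma sc_exists_sign {g X : Matrix ι ι F} (h : SC g X) : ∃ ε : F, ε * ε = 1 ∧ g * X = ε • (X * g) := by
  rcases h with h | h
  · exact ⟨1, by ring, by rw [one_smul]; exact h⟩
  · exact ⟨-1, by ring, by rw [neg_smul, one_smul]; exact h⟩

lemma sign_inv {g : GL ι F} {X : Matrix ι ι F} {ε : F} (hε : ε * ε = 1)
    (h : (g : Matrix ι ι F) * X = ε • (X * (g : Matrix ι ι F))) :
    ((g⁻¹ : GL ι F) : Matrix ι ι F) * X = ε • (X * ((g⁻¹ : GL ι F) : Matrix ι ι F)) := by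
  have h1 : ((g⁻¹ : GL ι F) : Matrix ι ι F) * (g : Matrix ι ι F) = 1 := by
    rw [← Units.val_mul, inv_mul_cancel, Units.val_one]
  have h2 : (g : Matrix ι ι F) * ((g⁻¹ : GL ι F) : Matrix ι ι F) = 1 := by
    rw [← Units.val_mul, mul_inv_cancel, Units.val_one]
  set gi := ((g⁻¹ : GL ι F) : Matrix ι ι F)
  set gm := (g : Matrix ι ι F)
  have h' : X * gm = ε • (gm * X) := by rw [h, smul_smul, hε, one_smul]
  calc gi * X = gi * X * (gm * gi) := by rw [h2, mul_one]
    _ = gi * (X * gm) * gi := by simp only [mul_assoc]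
    _ = gi * (ε • (gm * X)) * gi := by rw [h']
    _ = ε • ((gi * gm) * X * gi) := by simp only [mul_assoc, mul_smul_comm, smul_mul_assoc]
    _ = ε • (X * gi) := by rw [h1, one_mul]

/-- commutators of sign-commuting elements commute. -/
lemma comm_of_SC {x y : GL ι F} {X : Matrix ι ι F} (hx : SC (x : Matrix ι ι F) X)
    (hy : SC (y : Matrix ι ι F) X) :
    ((x * y * x⁻¹ * y⁻¹ : GL ι F) : Matrix ι ι F) * X = X * ((x * y * x⁻¹ * y⁻¹ : GL ι F) : Matrix ι ι F) := by
  obtain ⟨ε, hε, h1⟩ := sc_exists_sign hx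
  obtain ⟨δ, hδ, h2⟩ := sc_exists_sign hy
  have h3 := sign_inv hε h1
  have h4 := sign_inv hδ h2
  simp only [Units.val_mul]
  set a := (x : Matrix ι ι F)
  set b := (y : Matrix ι ι F)
  set a' := ((x⁻¹ : GL ι F) : Matrix ι ι F)
  set b' := ((y⁻¹ : GL ι F) : Matrix ι ι F)
  calc a * b * a' * b' * X = a * b * a' * (b' * X) := by simp only [mul_assoc]
    _ = δ • (a * b * (a' * X) * b') := by rw [h4]; simp only [mul_assoc, mul_smul_comm, smul_mul_assoc]
    _ = (δ * ε) • (a * (b * X) * a' * b') := by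
        rw [h3]; simp only [mul_assoc, mul_smul_comm, smul_mul_assoc, smul_smul]
    _ = (δ * ε * δ) • ((a * X) * b * a' * b') := by
        rw [h2]; simp only [mul_assoc, mul_smul_comm, smul_mul_assoc, smul_smul]
    _ = (δ * ε * δ * ε) • (X * a * b * a' * b') := by
        rw [h1]; simp only [mul_assoc, mul_smul_comm, smul_mul_assoc, smul_smul]
    _ = X * (a * b * a' * b') := by
        have : δ * ε * δ * ε = 1 := by
          calc δ * ε * δ * ε = (δ * δ) * (ε * ε) := by ring
            _ = 1 := by rw [hδ, hε, one_mul]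
        rw [this, one_smul]; simp only [mul_assoc]

lemma sc_of_mul_left {g : GL ι F} {x X : Matrix ι ι F} (hg : SC (g : Matrix ι ι F) X)
    (h : SC ((g : Matrix ι ι F) * x) X) : SC x X := by
  have := (SC.inv hg).mul_left h
  rwa [← mul_assoc, ← Units.val_mul, inv_mul_cancel, Units.val_one, one_mul] at this

end general

/-- an element of `Sp_4(3)` commuting with `A0 B0 J` is `±1` or `±J`. -/
lemma SC_D0_of_commute [Fintype F] (hq : Fintype.card F = 3) (x : GL (Fin 2 ⊕ Fin 2) F)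
    (hx : x ∈ spGL 2 F) (hA : (x : Matrix _ _ F) * A0 = A0 * (x : Matrix _ _ F))
    (hB : (x : Matrix _ _ F) * B0 = B0 * (x : Matrix _ _ F))
    (hJ : (x : Matrix _ _ F) * Matrix.J (Fin 2) F = Matrix.J (Fin 2) F * (x : Matrix _ _ F)) :
    SC (x : Matrix _ _ F) D0 := by
  have h3 := Cfsg.Agent.Lib.Helper94.Tens.card3_three hq
  have hc := Cfsg.Agent.Lib.Helper94.Tens.card3_cases hq
  have h2 : (2 : F) ≠ 0 := by
    intro h
    exact one_ne_zero (show (1 : F) = 0 by linear_combination h3 - h)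
  obtain ⟨-, -, -, -, hJD, -⟩ := std_relations (F := F) h3
  obtain ⟨α, β, hX⟩ := std_commutant h2 _ hA hB hJ
  have hg := mem_spGL_iff_gram.1 hx
  rw [hX] at hg ⊢
  have e : (α • (1 : Matrix (Fin 2 ⊕ Fin 2) (Fin 2 ⊕ Fin 2) F) + β • Matrix.J (Fin 2) F)ᵀ * Matrix.J (Fin 2) F *
      (α • 1 + β • Matrix.J (Fin 2) F) = (α * α + β * β) • Matrix.J (Fin 2) F := by
    rw [Matrix.transpose_add, Matrix.transpose_smul, Matrix.transpose_smul, Matrix.transpose_one,
      Matrix.J_transpose]
    have hJJ := Matrix.J_squared (Fin 2) F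
    simp only [add_mul, mul_add, smul_mul_assoc, mul_smul_comm, one_mul, mul_one, neg_mul, mul_neg, hJJ,
      smul_neg, smul_smul, mul_assoc]
    rw [add_smul]
    simp only [neg_neg, mul_one, neg_mul, one_mul, smul_neg]
    module
  rw [e] at hg
  have h1 : α * α + β * β = 1 := by
    have := congrFun (congrFun hg (Sum.inr 0)) (Sum.inl 0)
    simpa [Matrix.J] using this
  rcases hc α with ha | ha | ha <;> rcases hc β with hb | hb | hb <;> subst ha <;> subst hb
  · exact absurd (by linear_combination h1) (one_ne_zero (α := F)).symm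
  · right
    simp only [zero_smul, zero_add, one_smul]
    exact hJD
  · right
    simp only [zero_smul, zero_add, neg_smul, one_smul, neg_mul, mul_neg]
    rw [hJD]
  · left; simp
  · exact absurd (show (1 : F) = 0 by linear_combination h1) one_ne_zero
  · exact absurd (show (1 : F) = 0 by linear_combination h1) one_ne_zero
  · left; simp
  · exact absurd (show (1 : F) = 0 by linear_combination h1) one_ne_zero
  · exact absurd (show (1 : F) = 0 by linear_combination h1) one_ne_zero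

/-- STEP 1 -/
lemma SC_D0_of_mem [Fintype F] (hq : Fintype.card F = 3) (x : GL (Fin 2 ⊕ Fin 2) F) (hx : x ∈ R0 F) :
    SC (x : Matrix _ _ F) D0 := by
  have h3 := Cfsg.Agent.Lib.Helper94.Tens.card3_three hq
  obtain ⟨hAA, hBB, hDD, hAB, hJD, hAJ, hBJ, hAD, hBD, a, b, c, d, ha, hb, hc, hd, haR, hbR, hcR, hdR⟩ :=
    std_relations (F := F) h3
  -- level 3
  have L2 : ∀ x : GL (Fin 2 ⊕ Fin 2) F, x ∈ R0 F → (x : Matrix _ _ F) * A0 = A0 * (x : Matrix _ _ F) →
      (x : Matrix _ _ F) * B0 = B0 * (x : Matrix _ _ F) → SC (x : Matrix _ _ F) D0 := by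
    intro x hx hA hB
    rcases hx.2 (Matrix.J (Fin 2) F) (by simp) with hJ | hJ
    · exact SC_D0_of_commute hq x hx.1 hA hB hJ
    · have hdx : d * x ∈ R0 F := (R0 F).mul_mem hdR hx
      have h1 := SC_D0_of_commute hq (d * x) hdx.1
        (by rw [Units.val_mul, hd, mul_assoc, hA, ← mul_assoc, ← hAD, mul_assoc])
        (by rw [Units.val_mul, hd, mul_assoc, hB, ← mul_assoc, ← hBD, mul_assoc])
        (by rw [Units.val_mul, hd, mul_assoc, hJ, mul_neg, ← mul_assoc, ← mul_assoc, hJD, neg_mul])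
      rw [Units.val_mul] at h1
      exact sc_of_mul_left (by rw [hd]; exact Or.inl rfl) h1
  have L1 : ∀ x : GL (Fin 2 ⊕ Fin 2) F, x ∈ R0 F → (x : Matrix _ _ F) * A0 = A0 * (x : Matrix _ _ F) →
      SC (x : Matrix _ _ F) D0 := by
    intro x hx hA
    rcases hx.2 B0 (by simp) with hB | hB
    · exact L2 x hx hA hB
    · have hax : a * x ∈ R0 F := (R0 F).mul_mem haR hx
      have h1 := L2 (a * x) hax
        (by rw [Units.val_mul, ha, mul_assoc, hA, ← mul_assoc])
        (by rw [Units.val_mul, ha, mul_assoc, hB, mul_neg, ← mul_assoc, hAB, neg_mul, neg_neg, mul_assoc])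
      rw [Units.val_mul] at h1
      exact sc_of_mul_left (by rw [ha]; exact Or.inl hAD) h1
  rcases hx.2 A0 (by simp) with hA | hA
  · exact L1 x hx hA
  · have hbx : b * x ∈ R0 F := (R0 F).mul_mem hbR hx
    have hBA : (B0 : Matrix _ _ F) * A0 = -(A0 * B0) := by rw [hAB, neg_neg]
    have h1 := L1 (b * x) hbx
      (by rw [Units.val_mul, hb, mul_assoc, hA, mul_neg, ← mul_assoc, hBA, neg_mul, neg_neg, mul_assoc])
    rw [Units.val_mul] at h1
    exact sc_of_mul_left (by rw [hb]; exact Or.inl hBD) h1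

/-- S3a -/
theorem R0_comm [Fintype F] (hq : Fintype.card F = 3) :
    ∀ x ∈ R0 F, ∀ y ∈ R0 F, x * y * x⁻¹ * y⁻¹ ∈ scalars (Fin 2 ⊕ Fin 2) F := by
  intro x hx y hy
  have h3 := Cfsg.Agent.Lib.Helper94.Tens.card3_three hq
  have h2 : (2 : F) ≠ 0 := by
    intro h
    exact one_ne_zero (show (1 : F) = 0 by linear_combination h3 - h)
  obtain ⟨-, -, hDD, -, hJD, -⟩ := std_relations (F := F) h3
  have cA := comm_of_SC (hx.2 A0 (by simp)) (hy.2 A0 (by simp))
  have cB := comm_of_SC (hx.2 B0 (by simp)) (hy.2 B0 (by simp))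
  have cJ := comm_of_SC (hx.2 (Matrix.J (Fin 2) F) (by simp)) (hy.2 (Matrix.J (Fin 2) F) (by simp))
  have cD := comm_of_SC (SC_D0_of_mem hq x hx) (SC_D0_of_mem hq y hy)
  obtain ⟨α, β, hX⟩ := std_commutant h2 _ cA cB cJ
  rw [hX] at cD
  have hJJ := Matrix.J_squared (Fin 2) F
  have h5 : (2 * β) • (Matrix.J (Fin 2) F * D0) = 0 := by
    simp only [add_mul, mul_add, smul_mul_assoc, mul_smul_comm, one_mul, mul_one] at cD
    have h6 : β • (Matrix.J (Fin 2) F * D0) = β • (D0 * Matrix.J (Fin 2) F) := add_left_cancel cD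
    have h7 : (D0 : Matrix _ _ F) * Matrix.J (Fin 2) F = -(Matrix.J (Fin 2) F * D0) := by
      rw [hJD, neg_neg]
    rw [h7, smul_neg] at h6
    rw [two_mul, add_smul]
    nth_rewrite 2 [h6]
    abel
  have h6 : (2 * β) • (1 : Matrix (Fin 2 ⊕ Fin 2) (Fin 2 ⊕ Fin 2) F) = 0 := by
    have := congrArg (fun M => Matrix.J (Fin 2) F * M * D0) h5
    simp only [mul_smul_comm, smul_mul_assoc, mul_zero, zero_mul] at this
    rw [← mul_assoc, hJJ, mul_assoc, hDD] at this
    simpa using this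
  have hβ : β = 0 := by
    rcases smul_eq_zero.1 h6 with h | h
    · exact (mul_eq_zero.1 h).resolve_left h2
    · exact absurd h one_ne_zero
  rw [hβ, zero_smul, add_zero] at hX
  have hα : α ≠ 0 := by
    rintro rfl
    rw [zero_smul] at hX
    have := (x * y * x⁻¹ * y⁻¹).isUnit
    rw [hX] at this
    exact not_isUnit_zero this
  rw [mem_scalars_iff]
  exact ⟨Units.mk0 α hα, hX⟩

end Cfsg.Agent.Lib.Helper64.SpRow
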