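import Cfsg.Agent.Lib.Helper64.SpRow.S3bAux
import Cfsg.Agent.Lib.Helper8.SpRow.S0
import Cfsg.Agent.Lib.Helper94.TensF3

set_option autoImplicit false

namespace Cfsg.Agent.Lib.Helper64.SpRow

open Cfsg Cfsg.Geo Matrix Cfsg.Agent.Lib.Helper13.Asch Cfsg.Agent.Lib.Helper94.SpRow
open scoped MatrixGroups

variable {F : Type*} [Field F]

/-- S3b -/
theorem R0_env [Fintype F] (hq : Fintype.card F = 3) : env (R0 F) = ⊤ := by
  have h3 := Cfsg.Agent.Lib.Helper94.Tens.card3_three hq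
  have h2 : (2 : F) ≠ 0 := by
    intro h
    exact one_ne_zero (show (1 : F) = 0 by linear_combination h3 - h)
  obtain ⟨-, -, -, -, -, -, -, -, -, a, b, c, d, ha, hb, hc, hd, haR, hbR, hcR, hdR⟩ :=
    Cfsg.Agent.Lib.Helper8.SpRow.std_relations (F := F) h3
  have hmem : ∀ g : GL (Fin 2 ⊕ Fin 2) F, g ∈ R0 F →
      (g : Matrix (Fin 2 ⊕ Fin 2) (Fin 2 ⊕ Fin 2) F) ∈ env (R0 F) :=
    fun g hg => Algebra.subset_adjoin ⟨g, hg, rfl⟩
  exact eq_top_of_std_mem h2 _ (ha ▸ hmem a haR) (hb ▸ hmem b hbR) (hc ▸ hmem c hcR) (hd ▸ hmem d hdR)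

end Cfsg.Agent.Lib.Helper64.SpRow
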