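import Cfsg.Agent.Lib.Helper94.SpRow.Defs2

set_option autoImplicit false

namespace Cfsg.Agent.Lib.Helper64.SpRow

open Cfsg Cfsg.Geo Matrix Cfsg.Agent.Lib.Helper13.Asch Cfsg.Agent.Lib.Helper94.SpRow
open scoped MatrixGroups

variable {F : Type*} [Field F]

lemma A0_eq_diag : (A0 : Matrix _ _ F) = Matrix.diagonal (Sum.elim ![1, -1] ![1, -1]) := by
  unfold A0
  rw [← Matrix.fromBlocks_diagonal]
  congr 1 <;> (ext i j; fin_cases i <;> fin_cases j <;> simp)

lemma T0_eq_diag : (D0 : Matrix _ _ F) - Matrix.J (Fin 2) F * D0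
    = Matrix.diagonal (Sum.elim ![2, 2] ![-2, -2]) := by
  unfold D0 Matrix.J
  rw [Matrix.fromBlocks_multiply, ← Matrix.fromBlocks_diagonal, sub_eq_add_neg, Matrix.fromBlocks_neg,
    Matrix.fromBlocks_add]
  congr 1 <;> (ext i j; fin_cases i <;> fin_cases j <;> simp <;> norm_num)

/-- a matrix without zero entries -/
def M0 (F : Type*) [Field F] : Matrix (Fin 2 ⊕ Fin 2) (Fin 2 ⊕ Fin 2) F := (1 + B0) * D0

lemma M0_apply_ne (i j : Fin 2 ⊕ Fin 2) : M0 F i j ≠ 0 := by
  have e : M0 F
      = Matrix.fromBlocks !![1, 1; 1, 1] !![1, 1; 1, 1] !![1, 1; 1, 1] (- !![1, 1; 1, 1]) := by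
    unfold M0 B0 D0
    rw [← Matrix.fromBlocks_one, Matrix.fromBlocks_add, Matrix.fromBlocks_multiply]
    congr 1 <;> (ext i j; fin_cases i <;> fin_cases j <;> simp)
  rw [e]
  rcases i with i | i <;> rcases j with j | j <;> fin_cases i <;> fin_cases j <;> simp

/-- a subalgebra containing `A0 B0 J D0` is everything (characteristic not two). -/
theorem eq_top_of_std_mem (h2 : (2 : F) ≠ 0)
    (E : Subalgebra F (Matrix (Fin 2 ⊕ Fin 2) (Fin 2 ⊕ Fin 2) F))
    (hA : (A0 : Matrix _ _ F) ∈ E) (hB : (B0 : Matrix _ _ F) ∈ E)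
    (hJ : Matrix.J (Fin 2) F ∈ E) (hD : (D0 : Matrix _ _ F) ∈ E) : E = ⊤ := by
  have h8 : (8 : F) ≠ 0 := by
    have : (8 : F) = 2 * 2 * 2 := by norm_num
    rw [this]
    exact mul_ne_zero (mul_ne_zero h2 h2) h2
  have hT : (D0 : Matrix _ _ F) - Matrix.J (Fin 2) F * D0 ∈ E := E.sub_mem hD (E.mul_mem hJ hD)
  have h2m : (2 : F) • (1 : Matrix (Fin 2 ⊕ Fin 2) (Fin 2 ⊕ Fin 2) F) ∈ E := E.smul_mem E.one_mem _
  have hdiag : ∀ i, Matrix.single i i (1 : F) ∈ E := by
    intro i
    have key : ∀ (s t : F), s * s = 1 → t * t = 1 →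
        (8 : F)⁻¹ • (((1 : Matrix (Fin 2 ⊕ Fin 2) (Fin 2 ⊕ Fin 2) F) + s • A0) *
          ((2 : F) • (1 : Matrix (Fin 2 ⊕ Fin 2) (Fin 2 ⊕ Fin 2) F) + t • ((D0 : Matrix _ _ F) - Matrix.J (Fin 2) F * D0))) ∈ E :=
      fun s t _ _ => E.smul_mem (E.mul_mem (E.add_mem E.one_mem (E.smul_mem hA _))
        (E.add_mem h2m (E.smul_mem hT _))) _
    have hform : ∀ (s t : F), (8 : F)⁻¹ • (((1 : Matrix (Fin 2 ⊕ Fin 2) (Fin 2 ⊕ Fin 2) F) + s • A0) *
          ((2 : F) • (1 : Matrix (Fin 2 ⊕ Fin 2) (Fin 2 ⊕ Fin 2) F) + t • ((D0 : Matrix _ _ F) - Matrix.J (Fin 2) F * D0)))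
        = Matrix.diagonal (fun k => (8 : F)⁻¹ * ((1 + s * (Sum.elim ![1, -1] ![1, -1] : _ → F) k) *
            (2 + t * (Sum.elim ![2, 2] ![-2, -2] : _ → F) k))) := by
      intro s t
      rw [A0_eq_diag, T0_eq_diag, ← Matrix.diagonal_one, ← Matrix.diagonal_smul, ← Matrix.diagonal_smul,
        ← Matrix.diagonal_smul, Matrix.diagonal_add, Matrix.diagonal_add, Matrix.diagonal_mul_diagonal,
        ← Matrix.diagonal_smul]
      congr 1
      funext k
      simp
    rcases i with i | i <;> fin_cases i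
    · have := key 1 1 (by ring) (by ring)
      rw [hform] at this
      convert this using 1
      rw [← Matrix.diagonal_single]
      congr 1
      funext k
      rcases k with k | k <;> fin_cases k <;> simp <;> field_simp <;> norm_num
    · have := key (-1) 1 (by ring) (by ring)
      rw [hform] at this
      convert this using 1
      rw [← Matrix.diagonal_single]
      congr 1
      funext k
      rcases k with k | k <;> fin_cases k <;> simp <;> field_simp <;> norm_num
    · have := key 1 (-1) (by ring) (by ring)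
      rw [hform] at this
      convert this using 1
      rw [← Matrix.diagonal_single]
      congr 1
      funext k
      rcases k with k | k <;> fin_cases k <;> simp <;> field_simp <;> norm_num
    · have := key (-1) (-1) (by ring) (by ring)
      rw [hform] at this
      convert this using 1
      rw [← Matrix.diagonal_single]
      congr 1
      funext k
      rcases k with k | k <;> fin_cases k <;> simp <;> field_simp <;> norm_num
  have hM : M0 F ∈ E := E.mul_mem (E.add_mem E.one_mem hB) hD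
  have hsingle : ∀ i j (c : F), Matrix.single i j c ∈ E := by
    intro i j c
    have h1 := E.smul_mem (E.mul_mem (E.mul_mem (hdiag i) hM) (hdiag j))
      (c * (M0 F i j)⁻¹)
    rw [Matrix.single_mul_mul_single, Matrix.smul_single, one_mul, mul_one, smul_eq_mul, mul_assoc,
      inv_mul_cancel₀ (M0_apply_ne i j), mul_one] at h1
    exact h1
  rw [eq_top_iff]
  intro X _
  rw [Matrix.matrix_eq_sum_single X]
  exact E.sum_mem (fun i _ => E.sum_mem (fun j _ => hsingle i j _))

end Cfsg.Agent.Lib.Helper64.SpRow
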