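import Cfsg.Agent.Lib.Helper64.SpRow.S3a
import Cfsg.Agent.Lib.Helper11.SpRow.S1

set_option autoImplicit false
set_option linter.unusedSimpArgs false
set_option linter.unusedSectionVars false

namespace Cfsg.Agent.Lib.Helper64.SpRow

open Cfsg Cfsg.Geo Matrix Cfsg.Agent.Lib.Helper13.Asch Cfsg.Agent.Lib.Helper94.SpRow
open Cfsg.Agent.Lib.Helper8.SpRow (std_relations std_commutant)
open Cfsg.Agent.Lib.Helper11.SpRow (std_involutions)
open scoped MatrixGroups

variable {F : Type*} [Field F]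

section general

variable {ι : Type} [Fintype ι] [DecidableEq ι]

lemma sc_conj {h x : GL ι F} {X : Matrix ι ι F}
    (hs : SC (x : Matrix ι ι F) (((h⁻¹ : GL ι F) : Matrix ι ι F) * X * (h : Matrix ι ι F))) :
    SC ((h * x * h⁻¹ : GL ι F) : Matrix ι ι F) X := by
  have h1 : ((h⁻¹ : GL ι F) : Matrix ι ι F) * (h : Matrix ι ι F) = 1 := by
    rw [← Units.val_mul, inv_mul_cancel, Units.val_one]
  have h2 : (h : Matrix ι ι F) * ((h⁻¹ : GL ι F) : Matrix ι ι F) = 1 := by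
    rw [← Units.val_mul, mul_inv_cancel, Units.val_one]
  simp only [Units.val_mul]
  set hi := ((h⁻¹ : GL ι F) : Matrix ι ι F)
  set hm := (h : Matrix ι ι F)
  set xm := (x : Matrix ι ι F)
  have e1 : hm * xm * hi * X = hm * (xm * (hi * X * hm)) * hi := by
    calc hm * xm * hi * X = hm * xm * hi * X * (hm * hi) := by rw [h2, mul_one]
      _ = _ := by simp only [mul_assoc]
  have e2 : X * (hm * xm * hi) = hm * ((hi * X * hm) * xm) * hi := by
    calc X * (hm * xm * hi) = (hm * hi) * X * (hm * xm * hi) := by rw [h2, one_mul]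
      _ = _ := by simp only [mul_assoc]
  rcases hs with hs | hs
  · left; rw [e1, e2, hs]
  · right; rw [e1, e2, hs]; simp only [mul_neg, neg_mul]

end general

/-- S3c -/
theorem R0_norm [Fintype F] (hq : Fintype.card F = 3) (h : GL (Fin 2 ⊕ Fin 2) F)
    (hh : h ∈ spGL 2 F) (hJ : SC (h : Matrix _ _ F) (Matrix.J (Fin 2) F)) :
    ∀ x ∈ R0 F, h * x * h⁻¹ ∈ R0 F := by
  intro x hx
  have h3 := Cfsg.Agent.Lib.Helper94.Tens.card3_three hq
  obtain ⟨hAA, hBB, hDD, hAB, hJD, hAJ, hBJ, hAD, hBD, a, b, c, d, ha, hb, hc, hd, haR, hbR, hcR, hdR⟩ :=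
    std_relations (F := F) h3
  have h1 : ((h⁻¹ : GL _ F) : Matrix (Fin 2 ⊕ Fin 2) (Fin 2 ⊕ Fin 2) F) * (h : Matrix _ _ F) = 1 := by
    rw [← Units.val_mul, inv_mul_cancel, Units.val_one]
  have h2 : (h : Matrix (Fin 2 ⊕ Fin 2) (Fin 2 ⊕ Fin 2) F) * ((h⁻¹ : GL _ F) : Matrix _ _ F) = 1 := by
    rw [← Units.val_mul, mul_inv_cancel, Units.val_one]
  have xJ := hx.2 (Matrix.J (Fin 2) F) (by simp)
  have xA := hx.2 A0 (by simp)
  have xB := hx.2 B0 (by simp)
  obtain ⟨ε, hε, e1⟩ := sc_exists_sign hJ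
  have e2 := sign_inv hε e1
  -- the general step
  have key : ∀ g : GL (Fin 2 ⊕ Fin 2) F, g ∈ spGL 2 F →
      (g : Matrix (Fin 2 ⊕ Fin 2) (Fin 2 ⊕ Fin 2) F) * (g : Matrix (Fin 2 ⊕ Fin 2) (Fin 2 ⊕ Fin 2) F) = 1 →
      (g : Matrix (Fin 2 ⊕ Fin 2) (Fin 2 ⊕ Fin 2) F) * Matrix.J (Fin 2) F
        = Matrix.J (Fin 2) F * (g : Matrix (Fin 2 ⊕ Fin 2) (Fin 2 ⊕ Fin 2) F) →
      SC ((h * x * h⁻¹ : GL (Fin 2 ⊕ Fin 2) F) : Matrix (Fin 2 ⊕ Fin 2) (Fin 2 ⊕ Fin 2) F)
        (g : Matrix (Fin 2 ⊕ Fin 2) (Fin 2 ⊕ Fin 2) F) := by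
    intro g hg hgg hgJ
    apply sc_conj
    have hmem : h⁻¹ * g * h ∈ spGL 2 F := (spGL 2 F).mul_mem ((spGL 2 F).mul_mem ((spGL 2 F).inv_mem hh) hg) hh
    have hgram := mem_spGL_iff_gram.1 hmem
    simp only [Units.val_mul] at hgram
    set hi := ((h⁻¹ : GL _ F) : Matrix (Fin 2 ⊕ Fin 2) (Fin 2 ⊕ Fin 2) F)
    set hm := (h : Matrix (Fin 2 ⊕ Fin 2) (Fin 2 ⊕ Fin 2) F)
    set gm := (g : Matrix (Fin 2 ⊕ Fin 2) (Fin 2 ⊕ Fin 2) F)
    have htt : hi * gm * hm * (hi * gm * hm) = 1 := by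
      calc hi * gm * hm * (hi * gm * hm) = hi * gm * (hm * hi) * gm * hm := by simp only [mul_assoc]
        _ = hi * (gm * gm) * hm := by rw [h2, mul_one]; simp only [mul_assoc]
        _ = 1 := by rw [hgg, mul_one, h1]
    have htJ : hi * gm * hm * Matrix.J (Fin 2) F = Matrix.J (Fin 2) F * (hi * gm * hm) := by
      calc hi * gm * hm * Matrix.J (Fin 2) F = hi * gm * (hm * Matrix.J (Fin 2) F) := by
            simp only [mul_assoc]
        _ = ε • (hi * (gm * Matrix.J (Fin 2) F) * hm) := by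
            rw [e1]; simp only [mul_assoc, mul_smul_comm, smul_mul_assoc]
        _ = ε • ((hi * Matrix.J (Fin 2) F) * gm * hm) := by rw [hgJ]; simp only [mul_assoc]
        _ = (ε * ε) • (Matrix.J (Fin 2) F * (hi * gm * hm)) := by
            rw [e2]; simp only [mul_assoc, mul_smul_comm, smul_mul_assoc, smul_smul]
        _ = _ := by rw [hε, one_smul]
    rcases std_involutions hq _ hgram htt htJ with t | t | t | t | t | t | t | t <;> rw [t]
    · exact SC.one_right _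
    · exact (SC.one_right _).neg_right
    · exact xA
    · exact xA.neg_right
    · exact xB
    · exact xB.neg_right
    · exact (xJ.mul_right xA).mul_right xB
    · exact ((xJ.mul_right xA).mul_right xB).neg_right
  refine ⟨(spGL 2 F).mul_mem ((spGL 2 F).mul_mem hh hx.1) ((spGL 2 F).inv_mem hh), ?_⟩
  intro X hX
  simp only [Set.mem_insert_iff, Set.mem_singleton_iff] at hX
  rcases hX with rfl | rfl | rfl
  · apply sc_conj
    have : ((h⁻¹ : GL _ F) : Matrix (Fin 2 ⊕ Fin 2) (Fin 2 ⊕ Fin 2) F) * Matrix.J (Fin 2) F * (h : Matrix _ _ F)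
        = ε • Matrix.J (Fin 2) F := by
      rw [e2, smul_mul_assoc, mul_assoc, h1, mul_one]
    rw [this]
    have hε' : ε = 1 ∨ ε = -1 := by
      have : (ε - 1) * (ε + 1) = 0 := by linear_combination hε
      rcases mul_eq_zero.1 this with h | h
      · left; linear_combination h
      · right; linear_combination h
    rcases hε' with rfl | rfl
    · rw [one_smul]; exact xJ
    · rw [neg_smul, one_smul]; exact xJ.neg_right
  · rw [← ha]
    exact key a haR.1 (by rw [ha]; exact hAA) (by rw [ha]; exact hAJ)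
  · rw [← hb]
    exact key b hbR.1 (by rw [hb]; exact hBB) (by rw [hb]; exact hBJ)

end Cfsg.Agent.Lib.Helper64.SpRow
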