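import Cfsg.Agent.Lib.Helper64.SpRow.S3a
import Cfsg.Agent.Lib.Helper64.SpRow.S3b
import Cfsg.Agent.Lib.Helper64.SpRow.S3c
import Cfsg.Agent.Lib.Helper8.SpRow.ES
import Cfsg.Agent.Lib.Helper11.SpRow.U1
import Cfsg.Agent.Lib.Helper1.Sp.Z0

set_option autoImplicit false
set_option linter.unusedSimpArgs false
set_option linter.unusedSectionVars false

namespace Cfsg.Agent.Lib.Helper64.SpRow

open Cfsg Cfsg.Geo Matrix Cfsg.Agent.Lib.Helper13.Asch Cfsg.Agent.Lib.Helper94.SpRow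
open scoped MatrixGroups

variable {F : Type*} [Field F]

local notation "𝕄" => Matrix (Fin 2 ⊕ Fin 2) (Fin 2 ⊕ Fin 2) F

/-- an element of `GL_4(3)` conjugating `J` into `F[J]` sign-commutes with `J`. -/
lemma SC_J_of_conj [Fintype F] (hq : Fintype.card F = 3) (g : GL (Fin 2 ⊕ Fin 2) F) (x y : F)
    (h : (g : 𝕄) * Matrix.J (Fin 2) F * ((g⁻¹ : GL (Fin 2 ⊕ Fin 2) F) : 𝕄)
      = x • (1 : 𝕄) + y • Matrix.J (Fin 2) F) : SC (g : 𝕄) (Matrix.J (Fin 2) F) := by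
  have h3 := Cfsg.Agent.Lib.Helper94.Tens.card3_three hq
  have hc := Cfsg.Agent.Lib.Helper94.Tens.card3_cases hq
  have h2 : (2 : F) ≠ 0 := by
    intro h
    exact one_ne_zero (show (1 : F) = 0 by linear_combination h3 - h)
  have h1 : ((g⁻¹ : GL (Fin 2 ⊕ Fin 2) F) : 𝕄) * (g : 𝕄) = 1 := by
    rw [← Units.val_mul, inv_mul_cancel, Units.val_one]
  have h1' : (g : 𝕄) * ((g⁻¹ : GL (Fin 2 ⊕ Fin 2) F) : 𝕄) = 1 := by
    rw [← Units.val_mul, mul_inv_cancel, Units.val_one]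
  have hJJ := Matrix.J_squared (Fin 2) F
  set gm := (g : 𝕄)
  set gi := ((g⁻¹ : GL (Fin 2 ⊕ Fin 2) F) : 𝕄)
  have hsq : (gm * Matrix.J (Fin 2) F * gi) * (gm * Matrix.J (Fin 2) F * gi) = -1 := by
    calc (gm * Matrix.J (Fin 2) F * gi) * (gm * Matrix.J (Fin 2) F * gi)
        = gm * Matrix.J (Fin 2) F * (gi * gm) * Matrix.J (Fin 2) F * gi := by simp only [mul_assoc]
      _ = gm * (Matrix.J (Fin 2) F * Matrix.J (Fin 2) F) * gi := by rw [h1, mul_one]; simp only [mul_assoc]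
      _ = -1 := by rw [hJJ, mul_neg, mul_one, neg_mul, h1']
  rw [h] at hsq
  have e : (x • (1 : 𝕄) + y • Matrix.J (Fin 2) F) * (x • (1 : 𝕄) + y • Matrix.J (Fin 2) F)
      = (x * x - y * y) • (1 : 𝕄) + (2 * x * y) • Matrix.J (Fin 2) F := by
    simp only [add_mul, mul_add, smul_mul_assoc, mul_smul_comm, one_mul, mul_one, hJJ]
    module
  rw [e] at hsq
  have q1 : x * x - y * y = -1 := by
    have := congrFun (congrFun hsq (Sum.inl 0)) (Sum.inl 0)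
    simpa [Matrix.J] using this
  have q2 : 2 * x * y = 0 := by
    have := congrFun (congrFun hsq (Sum.inr 0)) (Sum.inl 0)
    simpa [Matrix.J] using this
  have hgJ : gm * Matrix.J (Fin 2) F = (x • (1 : 𝕄) + y • Matrix.J (Fin 2) F) * gm := by
    rw [← h, mul_assoc, h1, mul_one]
  rcases hc x with hx | hx | hx <;> rcases hc y with hy | hy | hy <;> subst hx <;> subst hy
  · exact absurd (show (1 : F) = 0 by linear_combination q1) one_ne_zero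
  · left; rw [hgJ]; simp
  · right; rw [hgJ]; simp
  · exact absurd (show (2 : F) = 0 by linear_combination q1) h2
  · exact absurd (show (2 : F) = 0 by linear_combination q2) h2
  · exact absurd (show (2 : F) = 0 by linear_combination -q2) h2
  · exact absurd (show (2 : F) = 0 by linear_combination q1) h2
  · exact absurd (show (2 : F) = 0 by linear_combination -q2) h2
  · exact absurd (show (2 : F) = 0 by linear_combination q2) h2

/-- U2 -/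
theorem unitary_field_three [Fintype F] (hq : Fintype.card F = 3)
    (K : Subalgebra F (Matrix (Fin 2 ⊕ Fin 2) (Fin 2 ⊕ Fin 2) F)) (hK : IsFieldSubalgebra 2 K)
    (hadj : IsAdjointClosedFor (sympForm 2 F) K) (hns : ¬ IsSelfAdjointFor (sympForm 2 F) K) :
    ∃ R : Subgroup (GL (Fin 2 ⊕ Fin 2) F), IsSymplecticTypeGroup 2 R ∧
      ActsAbsolutelyIrreducibly (matrixSet R) ∧ R ≤ similarityGroup (sympForm 2 F) ∧
      Nat.card R = 32 ∧ Nat.card (Subgroup.center R) = 2 ∧ IsOfMinusType 2 R ∧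
      subalgebraNormalizer K ⊓ spGL 2 F ≤ subgroupNormalizer R := by
  obtain ⟨P, hP, hKP⟩ := Cfsg.Agent.Lib.Helper11.SpRow.unitary_normal_form hq K hK hadj hns
  set R : Subgroup (GL (Fin 2 ⊕ Fin 2) F) := (R0 F).map (MulAut.conj P).toMonoidHom with hRdef
  have p1 : ((P⁻¹ : GL (Fin 2 ⊕ Fin 2) F) : 𝕄) * (P : 𝕄) = 1 := by
    rw [← Units.val_mul, inv_mul_cancel, Units.val_one]
  have p2 : (P : 𝕄) * ((P⁻¹ : GL (Fin 2 ⊕ Fin 2) F) : 𝕄) = 1 := by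
    rw [← Units.val_mul, mul_inv_cancel, Units.val_one]
  have memR : ∀ r, r ∈ R ↔ P⁻¹ * r * P ∈ R0 F := by
    intro r
    constructor
    · rintro ⟨x, hx, rfl⟩
      have : P⁻¹ * (MulAut.conj P).toMonoidHom x * P = x := by
        simp [MulAut.conj_apply, mul_assoc]
      rw [this]; exact hx
    · intro h
      exact ⟨_, h, by simp [MulAut.conj_apply, mul_assoc]⟩
  have hRsp : R ≤ spGL 2 F := by
    rintro _ ⟨x, hx, rfl⟩
    exact (spGL 2 F).mul_mem ((spGL 2 F).mul_mem hP hx.1) ((spGL 2 F).inv_mem hP)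
  have hfix : FixesForm (matrixSet R) (sympForm 2 F) := by
    rintro _ ⟨g, hg, rfl⟩ u v
    exact mem_spGL.1 (hRsp hg) u v
  have henv : env R = ⊤ := by
    rw [eq_top_iff]
    intro M _
    have h0 : ((P⁻¹ : GL (Fin 2 ⊕ Fin 2) F) : 𝕄) * M * (P : 𝕄) ∈ env (R0 F) := by
      rw [R0_env hq]; trivial
    have := Cfsg.Agent.Lib.Helper1.Sp.conj_mem_env P h0
    have e : (P : 𝕄) * (((P⁻¹ : GL (Fin 2 ⊕ Fin 2) F) : 𝕄) * M * (P : 𝕄)) * ((P⁻¹ : GL (Fin 2 ⊕ Fin 2) F) : 𝕄)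
        = M := by
      calc (P : 𝕄) * (((P⁻¹ : GL (Fin 2 ⊕ Fin 2) F) : 𝕄) * M * (P : 𝕄)) * ((P⁻¹ : GL (Fin 2 ⊕ Fin 2) F) : 𝕄)
          = ((P : 𝕄) * ((P⁻¹ : GL (Fin 2 ⊕ Fin 2) F) : 𝕄)) * M *
            ((P : 𝕄) * ((P⁻¹ : GL (Fin 2 ⊕ Fin 2) F) : 𝕄)) := by simp only [mul_assoc]
        _ = M := by rw [p2, one_mul, mul_one]
    rwa [e] at this
  have hcomm : ∀ x ∈ R, ∀ y ∈ R, x * y * x⁻¹ * y⁻¹ ∈ scalars (Fin 2 ⊕ Fin 2) F := by
    rintro _ ⟨a, ha, rfl⟩ _ ⟨b, hb, rfl⟩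
    have h0 := R0_comm hq a ha b hb
    have := (scalars_normal (ι := Fin 2 ⊕ Fin 2) (F := F)).conj_mem _ h0 P
    convert this using 1
    simp only [MulEquiv.coe_toMonoidHom, MulAut.conj_apply]
    group
  obtain ⟨hsym, habs, hsim, hcen, k, hk, hcard, hminus⟩ :=
    Cfsg.Agent.Lib.Helper8.SpRow.class6_data (by simp) sf_isSymplecticForm hfix henv hcomm
  have hk2 : k = 2 := by
    have h4 : Fintype.card (Fin 2 ⊕ Fin 2) = 2 ^ 2 := by simp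
    rw [h4] at hk
    exact (Nat.pow_right_injective (le_refl 2) hk).symm
  subst hk2
  refine ⟨R, hsym, habs, hsim, by rw [hcard]; norm_num, hcen, hminus, ?_⟩
  rintro h ⟨hhK, hhS⟩
  have hh' : P⁻¹ * h * P ∈ spGL 2 F :=
    (spGL 2 F).mul_mem ((spGL 2 F).mul_mem ((spGL 2 F).inv_mem hP) hhS) hP
  have hSC : SC ((P⁻¹ * h * P : GL (Fin 2 ⊕ Fin 2) F) : 𝕄) (Matrix.J (Fin 2) F) := by
    have hk0 : (P : 𝕄) * Matrix.J (Fin 2) F * ((P⁻¹ : GL (Fin 2 ⊕ Fin 2) F) : 𝕄) ∈ K :=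
      (hKP _).2 ⟨0, 1, by simp⟩
    obtain ⟨x, y, hxy⟩ := (hKP _).1 ((hhK _).1 hk0)
    apply SC_J_of_conj hq _ x y
    have e : ((P⁻¹ * h * P : GL (Fin 2 ⊕ Fin 2) F) : 𝕄) * Matrix.J (Fin 2) F *
        (((P⁻¹ * h * P)⁻¹ : GL (Fin 2 ⊕ Fin 2) F) : 𝕄)
        = ((P⁻¹ : GL (Fin 2 ⊕ Fin 2) F) : 𝕄) * ((h : 𝕄) * ((P : 𝕄) * Matrix.J (Fin 2) F *
          ((P⁻¹ : GL (Fin 2 ⊕ Fin 2) F) : 𝕄)) * ((h⁻¹ : GL (Fin 2 ⊕ Fin 2) F) : 𝕄)) * (P : 𝕄) := by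
      simp only [_root_.mul_inv_rev, inv_inv, Units.val_mul, mul_assoc]
    rw [e, hxy]
    calc ((P⁻¹ : GL (Fin 2 ⊕ Fin 2) F) : 𝕄) * ((P : 𝕄) * (x • 1 + y • Matrix.J (Fin 2) F) *
          ((P⁻¹ : GL (Fin 2 ⊕ Fin 2) F) : 𝕄)) * (P : 𝕄)
        = (((P⁻¹ : GL (Fin 2 ⊕ Fin 2) F) : 𝕄) * (P : 𝕄)) * (x • 1 + y • Matrix.J (Fin 2) F) *
          (((P⁻¹ : GL (Fin 2 ⊕ Fin 2) F) : 𝕄) * (P : 𝕄)) := by simp only [mul_assoc]
      _ = _ := by rw [p1, one_mul, mul_one]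
  have n1 := R0_norm hq _ hh' hSC
  have n2 := R0_norm hq _ ((spGL 2 F).inv_mem hh') (SC.inv hSC)
  change h ∈ Subgroup.normalizer (R : Set (GL (Fin 2 ⊕ Fin 2) F))
  rw [Subgroup.mem_normalizer_iff]
  intro r
  rw [memR, memR]
  have e : P⁻¹ * (h * r * h⁻¹) * P = (P⁻¹ * h * P) * (P⁻¹ * r * P) * (P⁻¹ * h * P)⁻¹ := by group
  rw [e]
  constructor
  · intro hr
    exact n1 _ hr
  · intro hr
    have := n2 _ hr
    convert this using 1
    group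

end Cfsg.Agent.Lib.Helper64.SpRow
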